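import Cfsg.Agent.Fpf.N2

/-! The central involution of a block is not a square in the centralizer of the module -/

set_option autoImplicit false

namespace CF.Fpf
open Cfsg Subgroup CF.Loc CF.FF
open CF.PLocal (maxAb thompson_le le_thompson)
open scoped commutatorElement MatrixGroups

universe u
variable {Γ : Type u} [Group Γ] {G A T S B L Q L' Q' : Subgroup Γ} {F : Type} [Field F] {ρ ρ' : Γ → SL(2, F)}
  {ψ ψ' : Γ → Fin 2 → F}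

theorem sq_comm {x r : Γ} (a : x * ⁅x, r⁆ = ⁅x, r⁆ * x) (b : ⁅x, r⁆ ^ 2 = 1) : r * (x * x) = x * x * r := by
  generalize e : ⁅x, r⁆ = c at a b
  have e1 : x * r = c * (r * x) := by rw [← e, commutatorElement_def]; group
  rw [pow_two] at b
  calc r * (x * x) = c * c * r * (x * x) := by rw [b, one_mul]
    _ = c * (x * r) * x := by rw [e1]; group
    _ = x * (x * r) := by rw [← mul_assoc c, ← a, e1]; group
    _ = _ := by group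

variable [Finite Γ]

namespace Nd
variable (h : Nd F B L Q ρ ψ)
include h

theorem U_le_max (hA : A ∈ maxAb 2 B) (c : A ≤ Q) : UU L Q ≤ A :=
  PLocal.le_of_le_centralizer_maxAb hA h.UB (h.UC.trans (centralizer_anti c)) h.ea.2

variable (h' : Nd F B L' Q' ρ' ψ') (c : ¬ UU L' Q' ≤ Q)
include h' c

theorem repl' (hA : A ∈ maxAb 2 B) (e : A ≤ Q') : (A ⊓ Q) ⊔ UU L Q ∈ maxAb 2 B :=
  h.repl hA (le_antisymm (sup_le hA.1 h.le) ((h.sup_eq h' c).ge.trans (sup_le_sup_right (h'.U_le_max hA e) Q)))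

theorem exists_max : ∃ A ∈ maxAb 2 B, A ≤ Q := by
  obtain ⟨A, hA⟩ := PLocal.maxAb_nonempty 2 B
  exact (h.ea_le h' c hA.1 hA.2.1).elim (fun e => ⟨A, hA, e⟩) fun e => ⟨_, h.repl' h' c hA e, sup_le inf_le_right h.UQ⟩

theorem U_le_J : UU L Q ≤ 𝐉[2](B) :=
  let ⟨_, a, b⟩ := h.exists_max h' c; (h.U_le_max a b).trans (le_thompson a)

theorem J_inf : 𝐉[2](B) ⊓ Q ≤ 𝐉[2](Q) := by
  have n := (h'.UB.trans h.BL).trans h.nQ
  have : 𝐉[2](B) ≤ 𝐉[2](Q) ⊔ UU L' Q' := PLocal.thompson_le_iff.2 fun A hA => by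
    refine (h.ea_le h' c hA.1 hA.2.1).elim (fun e => le_sup_of_le_left (le_thompson (PLocal.mem_maxAb_of_le hA e h.le)))
      fun e => ?_
    have e1 := sup_inf_of_le_normalizer_right n (h'.U_le_max hA e)
    rw [sup_comm, h.sup_eq h' c, inf_eq_right.2 hA.1, inf_comm] at e1
    exact e1.le.trans (sup_le_sup_right (le_sup_left.trans (le_thompson (PLocal.mem_maxAb_of_le (h.repl' h' c hA e)
      (sup_le inf_le_right h.UQ) h.le))) _)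
  refine (inf_le_inf_right Q this).trans ?_
  rw [sup_inf_of_le_normalizer_left (n.trans (norm_thompson 2 Q)) (thompson_le 2 Q)]
  exact sup_le le_rfl ((le_omegaOneCenter (isElemAb_of_le h'.ea inf_le_left) inf_le_right ((h.inf_le h' c).trans
    (centralizer_anti h.le))).trans (omega_le_J 2 Q))

theorem comm_Q : ⁅Q, UU L' Q'⁆ ≤ UU L Q := by
  have n := (h'.UB.trans h.BL).trans h.nU
  exact (commutator_mono (h.Q_eq h' c).le le_rfl).trans (commutator_sup_left_le le_normalizer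
    ((inf_le_right.trans h.QL).trans h.nU) (commutator_le_left_of_le_normalizer n) (comm_le_of_cent (inf_le_left.trans h'.QC)))

end Nd

local notation "𝐌" => MM G T
local notation "𝐙" => Cfsg.omegaOneCenter 2 T
local notation "𝐁₀" => Cfsg.baumannSubgroupOf 2 S

theorem Sel.nsq (h : Sel G A T S) (d : Nd F 𝐁₀ L Q ρ ψ) (d' : Nd F 𝐁₀ L' Q' ρ' ψ') (LG : L ≤ G)
    (bad : ∃ g ∈ L, ¬ Gd 𝐌 𝐙 g) (c : ¬ UU L' Q' ≤ Q) {z y : Γ} (hz : UU L Q ⊓ 𝐂(𝐁₀) = zpowers z) (hy : y ∈ T)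
    (yc : y ∈ 𝐂(UU L Q)) : y * y ≠ z := fun ez => by
  have ZC : ∀ {X}, X ≤ T → 𝐙 ≤ 𝐂(X) := fun a => (omegaOneCenter_le_centralizer 2 T).trans (centralizer_anti a)
  have ZQ : 𝐙 ≤ Q := d.le_Q h.ZB (ZC (d.UB.trans h.BT))
  obtain ⟨Y, hY⟩ : ∃ Y, Y = UU L Q ⊔ 𝐙 := ⟨_, rfl⟩
  have UY : UU L Q ≤ Y := hY ▸ le_sup_left
  have ZY : 𝐙 ≤ Y := hY ▸ le_sup_right
  have YV : Y ≤ 𝛀[2](Q) := hY ▸ sup_le d.blk (le_omegaOneCenter (isElemAb_omegaOneCenter 2 T) ZQ (ZC (d.le.trans h.BT)))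
  have YQ := YV.trans (omegaOneCenter_le 2 Q)
  have eY := isElemAb_of_le (isElemAb_omegaOneCenter 2 Q) YV
  have nT : T ≤ 𝐂(𝐙) := le_centralizer_omegaOneCenter 2 T
  have nY : L ≤ 𝐍(Y) := d.norm_of UY YQ (hY ▸ le_normalizer_sup (d.BL.trans d.nU) (h.BT.trans (nT.trans
    (centralizer_le_normalizer _))))
  have yY : y ∈ 𝐂(Y) := by rw [hY, centralizer_sup]; exact ⟨yc, nT hy⟩
  have bd : Bad G 𝐌 Y := let ⟨g, hg, k⟩ := bad; ⟨g, ⟨LG hg, nY hg⟩, fun e => k (e.mono ZY)⟩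
  obtain ⟨S1, s1, l1⟩ := exists_isSyl_ge (h.pT.to_le inf_le_left) (inf_le_inf_right 𝐍(Y) h.syl.le)
  have BS : 𝐁₀ ≤ S1 := (le_inf h.BT (d.BL.trans nY)).trans l1
  have SN := s1.le.trans inf_le_right
  have eB := (h.wd ((YQ.trans d.le).trans h.BT) ZY bd s1.isPGroup (s1.le.trans inf_le_left) BS ((YQ.trans d.le).trans BS) SN).1
  have nB : S1 ≤ 𝐍(𝐁₀) := eB ▸ le_normalizer.trans (norm_baumann 2 S1)
  have iB : IsB 2 𝐁₀ (G ⊓ 𝐍(Y)) := ⟨S1, s1, eB⟩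
  have nC : G ⊓ 𝐍(Y) ≤ 𝐍(G ⊓ 𝐂(Y)) := le_normalizer_inf (inf_le_left.trans le_normalizer)
    (le_normalizer_centralizer inf_le_right)
  have sT := s1.inf_of_le_normalizer (inf_le_inf_left G (centralizer_le_normalizer _)) nC
  have n0 : S1 ≤ 𝐍(S1 ⊓ (G ⊓ 𝐂(Y))) := le_normalizer_inf le_normalizer (s1.le.trans nC)
  have t1 : S1 ⊓ (G ⊓ 𝐂(Y)) ≤ S1 := inf_le_left
  have t2 : S1 ⊓ (G ⊓ 𝐂(Y)) ≤ 𝐂(Y) := inf_le_right.trans inf_le_right
  have t3 : Q ≤ S1 ⊓ (G ⊓ 𝐂(Y)) := le_inf (d.le.trans BS) (le_inf (d.QL.trans LG) (le_centralizer_comm.1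
    (YV.trans (omegaOneCenter_le_centralizer 2 Q))))
  have t4 : y ∈ S1 ⊓ (G ⊓ 𝐂(Y)) := ⟨l1 ⟨hy, centralizer_le_normalizer _ yY⟩, h.syl.le hy, yY⟩
  generalize S1 ⊓ (G ⊓ 𝐂(Y)) = T0 at sT n0 t1 t2 t3 t4
  have t5 : ∀ {X}, X ≤ 𝐁₀ → X ≤ T0 → X ≤ Q := fun a b => d.le_Q a ((b.trans t2).trans (centralizer_anti UY))
  obtain ⟨A1, hA, AQ⟩ := d.exists_max d' c
  rw [iB.max_eq s1.isPGroup BS s1.le] at hA
  have jQ : 𝐉[2](T0) ≤ Q := t5 ((PLocal.thompson_le_thompson_of_le hA (AQ.trans t3) t1).trans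
    ((thompson_le_baumann 2 S1).trans eB.le)) (thompson_le 2 T0)
  have U'S := d'.UB.trans BS
  have c1 : ⁅T0, UU L' Q'⁆ ≤ 𝐉[2](T0) := by
    have a : ⁅T0, UU L' Q'⁆ ≤ 𝐉[2](𝐁₀) := (commutator_mono le_rfl (d'.U_le_J d (d.symm d' c))).trans
      (commutator_le_right_of_le_normalizer (t1.trans (nB.trans (norm_thompson 2 _))))
    exact (le_inf a (t5 (a.trans (thompson_le 2 _)) (commutator_le_left_of_le_normalizer (U'S.trans n0)))).trans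
      ((d.J_inf d' c).trans (PLocal.thompson_eq_of_le jQ t3).le)
  have c2 : ⁅𝐉[2](T0), UU L' Q'⁆ ≤ Y := (commutator_mono jQ le_rfl).trans ((d.comm_Q d' c).trans UY)
  obtain ⟨N0, hN⟩ : ∃ N0, N0 = G ⊓ 𝐍(Y) ⊓ 𝐍(T0) := ⟨_, rfl⟩
  have m1 : N0 ≤ 𝐍(Y) := hN ▸ inf_le_left.trans inf_le_right
  have m2 : N0 ≤ 𝐍(T0) := hN ▸ inf_le_right
  have m3 := m2.trans (norm_thompson 2 T0)
  have s2 : IsSyl 2 S1 N0 := s1.mono (hN ▸ le_inf s1.le n0) (hN ▸ inf_le_left)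
  have nK : N0 ≤ 𝐍(N0 ⊓ (secCent T0 𝐉[2](T0) ⊓ secCent 𝐉[2](T0) Y)) := le_normalizer_inf le_normalizer
    (le_normalizer_inf (le_normalizer_secCent m2 m3) (le_normalizer_secCent m3 m1))
  have k1 : UU L' Q' ≤ N0 ⊓ (secCent T0 𝐉[2](T0) ⊓ secCent 𝐉[2](T0) Y) := le_inf (U'S.trans s2.le)
    (le_inf (le_secCent_iff.2 ⟨(U'S.trans s2.le).trans m3, c1⟩) (le_secCent_iff.2 ⟨U'S.trans SN, c2⟩))
  have k2 := commutator_pResidualOf_le (K := N0 ⊓ (secCent T0 𝐉[2](T0) ⊓ secCent 𝐉[2](T0) Y))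
    (exists_pow_mem_of_isPGroup (d.pQ.to_le jQ) Y) (le_secCent_iff.1 (inf_le_right.trans inf_le_left)).2
    (le_secCent_iff.1 (inf_le_right.trans inf_le_right)).2 ((jQ.trans d.QL).trans nY) (inf_le_left.trans m1)
  have k3 := (s2.inf_of_le_normalizer inf_le_left nK).pResidualOf_sup
  generalize N0 ⊓ (secCent T0 𝐉[2](T0) ⊓ secCent 𝐉[2](T0) Y) = K at nK k1 k2 k3
  have z1 : z ∈ UU L Q ⊓ 𝐂(𝐁₀) := hz.ge (mem_zpowers z)
  have zz : z ^ 2 = 1 := d.ea.2 z z1.1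
  have z2 : ∀ v ∈ UU L Q ⊓ 𝐂(𝐁₀), v = 1 ∨ v = z := fun v hv => eq_or_of_mem_zpowers (pow_two z ▸ zz) (hz.le hv)
  have e1 : ⁅Y, 𝐁₀⁆ ≤ UU L Q ⊓ 𝐂(𝐁₀) := by
    have a : ⁅UU L Q, 𝐁₀⁆ ≤ UU L Q ⊓ 𝐂(𝐁₀) := le_inf (commutator_le_left_of_le_normalizer (d.BL.trans d.nU)) d.natU.quad
    have b : ∀ {X}, X ≤ Q → X ≤ 𝐍(UU L Q ⊓ 𝐂(𝐁₀)) := fun a => (a.trans d.QC).trans
      (centralizer_le_normalizer_of_le inf_le_left)
    rw [hY]
    exact commutator_sup_left_le (b d.UQ) (b ZQ) a (comm_le_of_cent (ZC h.BT))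
  have z3 : z ∈ ⁅Y, 𝐁₀⁆ := by_contra fun k => d.natU.not_le_cent' (commutator_eq_bot_iff_le_centralizer'.1
    (eq_bot_iff.2 fun v hv => by
      have a := commutator_mono UY le_rfl hv
      exact mem_bot.2 ((z2 v (e1 a)).resolve_right fun e => k (e ▸ a))))
  have z0 : z ∉ 𝐂(L) := fun k => d.natU.not_le_cent (hz.le.trans (zpowers_le.2 k))
  have sz : z ∈ 𝐂(S1) := fun s hs => by
    have := z2 _ (e1 (conj_mem_of_mem_normalizer (le_normalizer_commutator SN nB hs) z3))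
    rw [← mul_inv_eq_iff_eq_mul]
    exact this.resolve_left fun e => z0 (by rw [conj_eq_one_iff.1 e]; exact one_mem _)
  have kz : z ∈ 𝐂(K) := by
    rw [← k3, centralizer_sup]
    refine ⟨fun r hr => ?_, centralizer_anti inf_le_left sz⟩
    have a := k2 (commutator_mem_commutator t4 hr)
    exact ez ▸ sq_comm (yY _ a).symm (eY.2 _ a)
  refine z0 fun x hx => ?_
  obtain ⟨n, hn, k, hk, e⟩ := sT.frattini' (nC ⟨LG hx, nY hx⟩)
  have n1 : n ∈ N0 := by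
    have := mul_mem (mem_inf.2 ⟨LG hx, nY hx⟩) (inv_mem (inf_le_inf_left G (centralizer_le_normalizer _) hk))
    rw [e, mul_inv_cancel_right] at this
    exact hN ▸ ⟨this, hn⟩
  have e2 : x * z * x⁻¹ = n * z * n⁻¹ := by
    rw [e, mul_assoc n, ← hk.2 z (UY z1.1)]; group
  have u1 := d.natU.conj_mem hx z1.1
  obtain ⟨a, ha, a0⟩ := SetLike.not_le_iff_exists.1 c
  have := d.mem_cent' (d'.UB ha) a0 u1 (by
    have := kz _ (conj_mem_of_mem_normalizer' (nK n1) (k1 ha))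
    rw [e2]
    calc a * (n * z * n⁻¹) = n * (n⁻¹ * a * n * z) * n⁻¹ := by group
      _ = _ := by rw [this]; group)
  rw [← mul_inv_eq_iff_eq_mul]
  exact (z2 _ ⟨u1, this⟩).resolve_left fun e => z0 (by rw [conj_eq_one_iff.1 e]; exact one_mem _)

end CF.Fpf
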